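import Cfsg.Agent.Screen.SteinbergValue.Alt
import Cfsg.Agent.Linear.Unipotent.Orbits
import Cfsg.Prelude.Def_LinearParabolics

/-!
Fixed points on the cosets of a parabolic subgroup are invariant flags.
-/

set_option autoImplicit false

namespace Cfsg.Agent.Screen.SteinbergValue

open Module Cfsg.Agent.Linear.Unipotent
open scoped MatrixGroups

variable {F : Type*} [Field F]

section Chain

variable {V : Type*} [AddCommGroup V] [Module F V]

/-- Invariant chains with prescribed steps. -/
def Chain (T : Module.End F V) {k : ℕ} (μ : Fin k → ℕ) (U : Submodule F V) : Type _ :=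
  {W : Fin (k + 1) → Submodule F V // W 0 = U ∧ W (Fin.last k) = ⊤ ∧
    ∀ i : Fin k, W i.castSucc ≤ W i.succ ∧ W i.succ ≤ (W i.succ).comap T ∧
      finrank F (W i.succ) = finrank F (W i.castSucc) + μ i}

theorem flagCount_eq_card [Finite V] [FiniteDimensional F V] (T : Module.End F V) :
    ∀ {k : ℕ} (μ : Fin k → ℕ) (U : Submodule F V),
      flagCount T (List.ofFn μ) U = (Nat.card (Chain T μ U) : ℤ) := by
  classical
  intro k
  induction k with
  | zero =>
    intro μ U
    rw [List.ofFn_zero]
    simp only [flagCount]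
    by_cases hU : U = ⊤
    · subst hU
      haveI : Unique (Chain T μ (⊤ : Submodule F V)) :=
        { default := ⟨fun _ => ⊤, rfl, rfl, fun i => i.elim0⟩
          uniq := fun W => Subtype.ext (funext fun i => by
            rw [show i = 0 from Fin.ext (by omega), W.2.1]) }
      rw [if_pos rfl, Nat.card_unique]
      rfl
    · haveI : IsEmpty (Chain T μ U) := ⟨fun W => hU (W.2.1.symm.trans W.2.2.1)⟩
      rw [if_neg hU, Nat.card_of_isEmpty]
      rfl
  | succ k ih =>
    intro μ U
    letI := Fintype.ofFinite (Submodule F V)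
    rw [List.ofFn_succ]
    simp only [flagCount, ih]
    let e : Chain T μ U ≃ Σ W : {W : Submodule F V //
        U ≤ W ∧ W ≤ W.comap T ∧ finrank F W = finrank F U + μ 0},
        Chain T (fun i => μ i.succ) W.1 :=
      { toFun := fun W => ⟨⟨W.1 1, by
            have h := W.2.2.2 0
            rw [Fin.castSucc_zero, W.2.1, Fin.succ_zero_eq_one] at h
            exact h⟩,
          ⟨fun i => W.1 i.succ, rfl, W.2.2.1, fun i => by
            have h := W.2.2.2 i.succ
            rw [Fin.castSucc_succ i] at h
            exact h⟩⟩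
        invFun := fun p => ⟨Fin.cons U p.2.1, Fin.cons_zero _ _, by
            rw [← Fin.succ_last, Fin.cons_succ]; exact p.2.2.2.1,
          fun i => by
            refine Fin.cases ?_ (fun j => ?_) i
            · rw [Fin.castSucc_zero, Fin.cons_zero, Fin.cons_succ, p.2.2.1]
              exact p.1.2
            · simp only [Fin.castSucc_succ, Fin.cons_succ]
              exact p.2.2.2.2 j⟩
        left_inv := fun W => Subtype.ext (funext fun i => by
          refine Fin.cases ?_ (fun j => ?_) i
          · exact W.2.1.symm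
          · simp)
        right_inv := fun p => by
          obtain ⟨⟨W, hW⟩, ⟨C, hC0, hC⟩⟩ := p
          have hW0 : W = C 0 := hC0.symm
          subst hW0
          rfl }
    haveI : ∀ (j : ℕ) (ν : Fin j → ℕ) (U' : Submodule F V), Finite (Chain T ν U') := fun j ν U' =>
      Subtype.finite
    rw [Nat.card_congr e, Nat.card_sigma, finsum_eq_sum_of_fintype, Nat.cast_sum]

theorem chain_finrank {T : Module.End F V} {n : ℕ} {μ : Fin n → ℕ} (W : Chain T μ ⊥) :
    ∀ i : Fin (n + 1), finrank F (W.1 i) = psum μ i.val := by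
  intro i
  induction i using Fin.induction with
  | zero => rw [W.2.1, finrank_bot]; simp [psum]
  | succ i ih => rw [(W.2.2.2 i).2.2, ih, Fin.val_succ, psum_succ, Fin.val_castSucc]

theorem chain_stable {T : Module.End F V} {n : ℕ} {μ : Fin n → ℕ} (W : Chain T μ ⊥) :
    ∀ i : Fin (n + 1), W.1 i ≤ (W.1 i).comap T := by
  intro i
  induction i using Fin.induction with
  | zero => rw [W.2.1]; exact bot_le
  | succ i _ => exact (W.2.2.2 i).2.1

/-- A family adapted to a chain of subspaces. -/
theorem exists_adapted [FiniteDimensional F V] {k : ℕ} (W : Fin (k + 1) → Submodule F V)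
    (h0 : W 0 = ⊥) (hle : ∀ i : Fin k, W i.castSucc ≤ W i.succ) :
    ∃ v : ℕ → V, ∀ j, W j = Submodule.span F (v '' Set.Iio (finrank F (W j))) := by
  induction k with
  | zero =>
    refine ⟨fun _ => 0, fun j => ?_⟩
    rw [show j = 0 from Fin.ext (by omega), h0, finrank_bot]
    simp
  | succ k ih =>
    obtain ⟨v, hv⟩ := ih (fun i => W i.castSucc) (by simpa using h0)
      (fun i => by simpa [Fin.castSucc_succ] using hle i.castSucc)
    set A := W (Fin.last k).castSucc with hA
    set B := W (Fin.last (k + 1)) with hB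
    have hAB : A ≤ B := by
      have := hle (Fin.last k)
      rwa [Fin.succ_last] at this
    obtain ⟨C', hC'⟩ := Submodule.exists_isCompl A
    set C := C' ⊓ B with hC
    have hsup : A ⊔ C = B := by
      rw [hC, ← sup_inf_assoc_of_le C' hAB, hC'.sup_eq_top, top_inf_eq]
    have hinf : A ⊓ C = ⊥ := by rw [hC, ← inf_assoc, hC'.inf_eq_bot, bot_inf_eq]
    set d := finrank F A with hd
    set c := finrank F C with hc
    have hdim : finrank F B = d + c := by
      have := Submodule.finrank_sup_add_finrank_inf_eq A C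
      rw [hsup, hinf, finrank_bot] at this
      omega
    let b := Module.finBasis F C
    let v' : ℕ → V := fun i =>
      if i < d then v i else if h : i - d < c then ((b ⟨i - d, h⟩ : C) : V) else 0
    refine ⟨v', fun j => ?_⟩
    have hlow : ∀ m ≤ d, v' '' Set.Iio m = v '' Set.Iio m := fun m hm =>
      Set.image_congr fun i hi => if_pos (lt_of_lt_of_le hi hm)
    refine Fin.lastCases ?_ (fun i => ?_) j
    · change B = Submodule.span F (v' '' Set.Iio (finrank F B))
      rw [hdim]
      have hsplit : v' '' Set.Iio (d + c) =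
          v '' Set.Iio d ∪ Set.range (fun i : Fin c => ((b i : C) : V)) := by
        ext x
        constructor
        · rintro ⟨i, hi, rfl⟩
          by_cases hid : i < d
          · exact Or.inl ⟨i, hid, (if_pos hid).symm⟩
          · refine Or.inr ⟨⟨i - d, by have : i < d + c := hi; omega⟩, ?_⟩
            simp only [v', if_neg hid]
            rw [dif_pos]
        · rintro (⟨i, hi, rfl⟩ | ⟨i, rfl⟩)
          · exact ⟨i, lt_of_lt_of_le hi (Nat.le_add_right _ _), if_pos hi⟩
          · refine ⟨d + i.val, by simp, ?_⟩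
            simp only [v', if_neg (show ¬ d + i.val < d by omega)]
            rw [dif_pos (show d + i.val - d < c by omega)]
            congr 2
            exact Fin.ext (by simp)
      rw [hsplit, Submodule.span_union, ← hv (Fin.last k)]
      have hCs : Submodule.span F (Set.range fun i : Fin c => ((b i : C) : V)) = C := by
        rw [show (Set.range fun i : Fin c => ((b i : C) : V)) = C.subtype '' Set.range b from
          (Set.range_comp C.subtype b), Submodule.span_image, b.span_eq, Submodule.map_top,
          Submodule.range_subtype]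
      rw [hCs]
      exact hsup.symm
    · have hmono : W i.castSucc ≤ A := by
        have hm : Monotone (fun i : Fin (k + 1) => W i.castSucc) :=
          Fin.monotone_iff_le_succ.2 fun i => by simpa [Fin.castSucc_succ] using hle i.castSucc
        exact hm (Fin.le_last i)
      rw [hlow _ (Submodule.finrank_mono hmono)]
      exact hv i

end Chain

section Cosets

variable {n : ℕ}

/-- The standard subspace of dimension `d`. -/
def stdSub (F : Type*) [Field F] (n d : ℕ) : Submodule F (Fin n → F) where
  carrier := {v | ∀ i : Fin n, d ≤ i.val → v i = 0}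
  add_mem' := fun ha hb i hi => by simp [ha i hi, hb i hi]
  zero_mem' := fun i _ => rfl
  smul_mem' := fun c v hv i hi => by simp [hv i hi]

theorem stdSub_eq_span (d : ℕ) :
    stdSub F n d = Submodule.span F ((Pi.basisFun F (Fin n)) '' {i | i.val < d}) := by
  classical
  refine le_antisymm (fun v hv => ?_) (Submodule.span_le.2 ?_)
  · rw [← (Pi.basisFun F (Fin n)).sum_repr v]
    refine Submodule.sum_mem _ fun i _ => ?_
    by_cases hi : i.val < d
    · exact Submodule.smul_mem _ _ (Submodule.subset_span ⟨i, hi, rfl⟩)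
    · rw [Pi.basisFun_repr, hv i (not_lt.1 hi), zero_smul]
      exact zero_mem _
  · rintro _ ⟨i, hi, rfl⟩ j hj
    rw [Pi.basisFun_apply, Pi.single_eq_of_ne]
    intro h
    have : i.val < d := hi
    subst h
    omega

theorem finrank_stdSub (d : ℕ) (hd : d ≤ n) : finrank F (stdSub F n d) = d := by
  classical
  rw [stdSub_eq_span, Set.image_eq_range,
    finrank_span_eq_card (R := F) (b := fun i : ({i : Fin n | i.val < d} : Set (Fin n)) => Pi.basisFun F (Fin n) i)]
  · let E : ({i : Fin n | i.val < d} : Set (Fin n)) ≃ Fin d :=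
      { toFun := fun i => ⟨i.1.val, i.2⟩
        invFun := fun j => ⟨⟨j.val, lt_of_lt_of_le j.isLt hd⟩, j.isLt⟩
        left_inv := fun i => rfl
        right_inv := fun j => rfl }
    rw [Fintype.card_congr E, Fintype.card_fin]
  · exact (Pi.basisFun F (Fin n)).linearIndependent.comp _ Subtype.val_injective

theorem stdSub_mono : Monotone (stdSub F n) := fun _ _ h _ hv i hi => hv i (h.trans hi)

/-- The linear map of an element of the general linear group. -/
noncomputable def glMap (g : GL (Fin n) F) : (Fin n → F) ≃ₗ[F] (Fin n → F) :=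
  LinearEquiv.ofLinearMap (Matrix.mulVecLin (g : Matrix (Fin n) (Fin n) F))
    (Matrix.mulVecLin ((g⁻¹ : GL (Fin n) F) : Matrix (Fin n) (Fin n) F))
    (LinearMap.ext fun v => by simp [Matrix.mulVec_mulVec])
    (LinearMap.ext fun v => by simp [Matrix.mulVec_mulVec])

theorem glMap_apply (g : GL (Fin n) F) (v : Fin n → F) :
    glMap g v = (g : Matrix (Fin n) (Fin n) F).mulVec v := rfl

theorem glMap_mul (g h : GL (Fin n) F) (v : Fin n → F) : glMap (g * h) v = glMap g (glMap h v) := by
  simp [glMap_apply, Matrix.mulVec_mulVec]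

variable {μ : Fin n → ℕ}

theorem mem_parabolic_iff (g : GL (Fin n) F) :
    g ∈ parabolicGL n F μ ↔ ∀ k ≤ n, ∀ v ∈ stdSub F n (psum μ k), glMap g v ∈ stdSub F n (psum μ k) := by
  classical
  constructor
  · intro hg k hk v hv i hi
    rw [glMap_apply, Matrix.mulVec, dotProduct]
    refine Finset.sum_eq_zero fun j _ => ?_
    by_cases hj : j.val < psum μ k
    · rcases Nat.eq_zero_or_pos k with rfl | hk0
      · simp [psum] at hj
      have hlab : compLabel μ j < compLabel μ i := by
        have h1 := lt_compLabel_iff μ ⟨k - 1, by omega⟩ i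
        have h2 := lt_compLabel_iff μ ⟨k - 1, by omega⟩ j
        simp only [show k - 1 + 1 = k by omega] at h1 h2
        omega
      rw [hg hlab, zero_mul]
    · rw [hv j (not_lt.1 hj), mul_zero]
  · intro h i j hij
    have hjn : compLabel μ j < n := by
      by_contra hc
      have := Finset.card_le_univ (Finset.univ.filter fun k : Fin n => psum μ (k.val + 1) ≤ i.val)
      rw [← compLabel_eq, Fintype.card_fin] at this
      omega
    have h1 := lt_compLabel_iff μ ⟨compLabel μ j, hjn⟩ i
    have h2 := lt_compLabel_iff μ ⟨compLabel μ j, hjn⟩ j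
    simp only at h1 h2
    have := h (compLabel μ j + 1) (by omega) (Pi.single j 1)
      (fun l hl => Pi.single_eq_of_ne (fun hlj => by subst hlj; omega) _) i (h1.1 hij)
    rwa [glMap_apply, Matrix.mulVec_single_one, Matrix.col_apply] at this

theorem map_stdSub_of_mem {g : GL (Fin n) F} (hg : g ∈ parabolicGL n F μ) (k : ℕ) (hk : k ≤ n) :
    (stdSub F n (psum μ k)).map (glMap g : (Fin n → F) →ₗ[F] (Fin n → F)) =
      stdSub F n (psum μ k) := by
  refine Submodule.eq_of_le_of_finrank_eq (Submodule.map_le_iff_le_comap.2 ((mem_parabolic_iff g).1 hg k hk))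
    ?_
  exact LinearEquiv.finrank_map_eq (glMap g) _

theorem psum_le (hμ : ∑ i, μ i = n) (k : ℕ) : psum μ k ≤ n :=
  (Finset.sum_le_sum_of_subset (Finset.subset_univ _)).trans hμ.le

theorem card_fixed_eq_chain [Finite F] (hμ : ∑ i, μ i = n) (x : GL (Fin n) F) :
    Nat.card (MulAction.fixedBy (GL (Fin n) F ⧸ parabolicGL n F μ) x) =
      Nat.card (Chain (glMap x : (Fin n → F) →ₗ[F] (Fin n → F)) μ ⊥) := by
  classical
  have htop : stdSub F n n = ⊤ := Submodule.eq_top_of_finrank_eq (by
    rw [finrank_stdSub n le_rfl, Module.finrank_fin_fun])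
  have hlast : psum μ n = n := by
    rw [psum, Finset.filter_true_of_mem (fun i _ => i.isLt), hμ]
  have hfix : ∀ g : GL (Fin n) F, x • (QuotientGroup.mk g : GL (Fin n) F ⧸ parabolicGL n F μ) =
      QuotientGroup.mk g ↔ ∀ k ≤ n, (stdSub F n (psum μ k)).map (glMap g : (Fin n → F) →ₗ[F] (Fin n → F)) ≤
        ((stdSub F n (psum μ k)).map (glMap g : (Fin n → F) →ₗ[F] (Fin n → F))).comap (glMap x : (Fin n → F) →ₗ[F] (Fin n → F)) := by
    intro g
    rw [MulAction.Quotient.smul_mk, smul_eq_mul, eq_comm, QuotientGroup.eq, mem_parabolic_iff]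
    refine forall₂_congr fun k _ => ?_
    constructor
    · rintro h _ ⟨v, hv, rfl⟩
      refine ⟨_, h v hv, ?_⟩
      change glMap g (glMap (g⁻¹ * (x * g)) v) = glMap x (glMap g v)
      rw [← glMap_mul, ← glMap_mul, mul_inv_cancel_left]
    · intro h v hv
      obtain ⟨w, hw, hw'⟩ := h ⟨v, hv, rfl⟩
      change glMap g w = glMap x (glMap g v) at hw'
      rw [glMap_mul, glMap_mul, ← hw', ← glMap_mul, inv_mul_cancel, glMap_apply, Units.val_one,
        Matrix.one_mulVec]
      exact hw
  let Φ : MulAction.fixedBy (GL (Fin n) F ⧸ parabolicGL n F μ) x →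
      Chain (glMap x : (Fin n → F) →ₗ[F] (Fin n → F)) μ ⊥ := fun q =>
    ⟨fun k => (stdSub F n (psum μ k.val)).map (glMap (Quotient.out q.1) : (Fin n → F) →ₗ[F] (Fin n → F)), by
      refine (congrArg (Submodule.map _) ?_).trans (Submodule.map_bot _)
      refine eq_bot_iff.2 fun v hv => ?_
      exact funext fun i => hv i (by simp [psum]),
      by
        change (stdSub F n (psum μ n)).map _ = ⊤
        rw [hlast, htop, Submodule.map_top, LinearEquiv.range],
      fun i => ⟨Submodule.map_mono (stdSub_mono (psum_mono μ (by simp))),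
        (hfix (Quotient.out q.1)).1 (by rw [QuotientGroup.out_eq']; exact q.2) _
          (by have := i.isLt; simp only [Fin.val_succ]; omega),
        by
          rw [LinearEquiv.finrank_map_eq, LinearEquiv.finrank_map_eq, finrank_stdSub _ (psum_le hμ _),
            finrank_stdSub _ (psum_le hμ _), Fin.val_succ, psum_succ, Fin.val_castSucc]⟩⟩
  refine Nat.card_eq_of_bijective Φ ⟨fun q q' h => Subtype.ext ?_, fun W => ?_⟩
  · rw [← Quotient.out_eq' q.1, ← Quotient.out_eq' q'.1]
    refine QuotientGroup.eq.2 ((mem_parabolic_iff _).2 fun k hk v hv => ?_)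
    have h' : (stdSub F n (psum μ k)).map (glMap (Quotient.out q.1) : (Fin n → F) →ₗ[F] (Fin n → F)) =
        (stdSub F n (psum μ k)).map (glMap (Quotient.out q'.1) : (Fin n → F) →ₗ[F] (Fin n → F)) :=
      congrFun (congrArg Subtype.val h) ⟨k, by omega⟩
    have hm : glMap (Quotient.out q'.1) v ∈
        (stdSub F n (psum μ k)).map (glMap (Quotient.out q.1) : (Fin n → F) →ₗ[F] (Fin n → F)) := by
      rw [h']; exact ⟨v, hv, rfl⟩
    obtain ⟨w, hw, hw'⟩ := hm
    change glMap _ w = glMap _ v at hw'
    rw [glMap_mul, ← hw', ← glMap_mul, inv_mul_cancel, glMap_apply, Units.val_one, Matrix.one_mulVec]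
    exact hw
  · obtain ⟨v, hv⟩ := exists_adapted W.1 W.2.1 fun i => (W.2.2.2 i).1
    have hv' : ⊤ ≤ Submodule.span F (Set.range fun i : Fin n => v i.val) := by
      rw [← W.2.2.1, hv, chain_finrank W, Fin.val_last, hlast]
      refine Submodule.span_mono ?_
      rintro _ ⟨i, hi, rfl⟩
      exact ⟨⟨i, hi⟩, rfl⟩
    let b := basisOfTopLeSpanOfCardEqFinrank (fun i : Fin n => v i.val) hv' (by simp)
    let e : (Fin n → F) ≃ₗ[F] (Fin n → F) := (Pi.basisFun F (Fin n)).equiv b (Equiv.refl _)
    let g : GL (Fin n) F :=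
      ⟨LinearMap.toMatrix' (e : (Fin n → F) →ₗ[F] (Fin n → F)),
        LinearMap.toMatrix' (e.symm : (Fin n → F) →ₗ[F] (Fin n → F)),
        by rw [← LinearMap.toMatrix'_comp, LinearEquiv.comp_coe, LinearEquiv.symm_trans_self]; simp,
        by rw [← LinearMap.toMatrix'_comp, LinearEquiv.comp_coe, LinearEquiv.self_trans_symm]; simp⟩
    have hg : ∀ w, glMap g w = e w := fun w => LinearMap.toMatrix'_mulVec _ w
    have he : ∀ i : Fin n, glMap g (Pi.basisFun F (Fin n) i) = v i.val := by
      intro i
      rw [hg, Module.Basis.equiv_apply, Equiv.refl_apply]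
      exact congrFun (coe_basisOfTopLeSpanOfCardEqFinrank _ _ _) i
    have hmap : ∀ k : Fin (n + 1), (stdSub F n (psum μ k.val)).map (glMap g : (Fin n → F) →ₗ[F] (Fin n → F)) = W.1 k := by
      intro k
      rw [hv k, chain_finrank W k, stdSub_eq_span, Submodule.map_span, ← Set.image_comp]
      congr 1
      ext y
      constructor
      · rintro ⟨i, hi, rfl⟩
        exact ⟨i.val, hi, (he i).symm⟩
      · rintro ⟨i, hi, rfl⟩
        have hin : i < n := lt_of_lt_of_le hi (psum_le hμ _)
        exact ⟨⟨i, hin⟩, hi, he _⟩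
    have hfixg : x • (QuotientGroup.mk g : GL (Fin n) F ⧸ parabolicGL n F μ) = QuotientGroup.mk g :=
      (hfix g).2 fun k hk => by
        have := hmap ⟨k, by omega⟩
        rw [this]
        exact chain_stable W _
    refine ⟨⟨QuotientGroup.mk g, hfixg⟩, Subtype.ext (funext fun k => ?_)⟩
    obtain ⟨p, hp⟩ := QuotientGroup.mk_out_eq_mul (parabolicGL n F μ) g
    change (stdSub F n (psum μ k.val)).map
      (glMap (Quotient.out (QuotientGroup.mk g : GL (Fin n) F ⧸ parabolicGL n F μ)) :
        (Fin n → F) →ₗ[F] (Fin n → F)) = _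
    rw [hp, show ((glMap (g * p.1)) : (Fin n → F) →ₗ[F] (Fin n → F)) =
      (glMap g : (Fin n → F) →ₗ[F] (Fin n → F)) ∘ₗ (glMap p.1 : (Fin n → F) →ₗ[F] (Fin n → F)) from LinearMap.ext fun w => glMap_mul _ _ w,
      Submodule.map_comp, map_stdSub_of_mem p.2 _ (Nat.lt_succ_iff.1 k.isLt), hmap]

end Cosets

end Cfsg.Agent.Screen.SteinbergValue
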