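import Cfsg.Agent.Screen.SteinbergValue.Alt
import Cfsg.Agent.Forms.SympExists

/-!
The Möbius function of the submodule lattice of a finite semisimple module over a polynomial ring.
-/

set_option autoImplicit false

namespace Cfsg.Agent.Screen.SteinbergValue

open Module Polynomial

section General

variable {R : Type*} [Ring R] {M : Type*} [AddCommGroup M] [Module R M] [Finite M]

instance (U : Submodule R M) : Finite (M ⧸ U) := Finite.of_surjective _ (Submodule.mkQ_surjective U)

/-- The Möbius function of the submodule lattice. -/
noncomputable def moebius (R M : Type*) [Ring R] [AddCommGroup M] [Module R M] [Finite M] : ℤ :=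
  psi (⊥ : Submodule R M)

theorem moebius_of_subsingleton [Subsingleton M] : moebius R M = 1 := by
  rw [moebius, show (⊥ : Submodule R M) = ⊤ from Subsingleton.elim _ _, psi_top]

theorem moebius_congr {M' : Type*} [AddCommGroup M'] [Module R M'] [Finite M'] (e : M ≃ₗ[R] M') :
    moebius R M = moebius R M' := by
  unfold moebius
  rw [← psi_orderIso (Submodule.orderIsoMapComap e) (⊥ : Submodule R M)]
  congr 1
  exact Submodule.map_bot _

theorem psi_eq_moebius_quotient (U : Submodule R M) : psi U = moebius R (M ⧸ U) := by
  classical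
  letI := Fintype.ofFinite (Submodule R M)
  letI := Fintype.ofFinite (Submodule R (M ⧸ U))
  have hkey : ∀ W : Submodule R (M ⧸ U), psi W = psi (W.comap U.mkQ) := by
    intro W
    induction W using (wellFounded_gt (α := Submodule R (M ⧸ U))).induction with
    | _ W ih =>
      by_cases hW : W = ⊤
      · subst hW
        rw [Submodule.comap_top, psi_top, psi_top]
      · have hW' : W.comap U.mkQ ≠ ⊤ := fun h => hW (by
          rw [← Submodule.map_comap_eq_of_surjective (Submodule.mkQ_surjective U) W, h,
            Submodule.map_top, Submodule.range_mkQ])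
        rw [psi_of_ne hW, psi_of_ne hW']
        congr 1
        refine Finset.sum_bij' (fun X _ => X.comap U.mkQ) (fun X _ => X.map U.mkQ) ?_ ?_ ?_ ?_ ?_
        · intro X hX
          simp only [Finset.mem_filter, Finset.mem_univ, true_and] at hX ⊢
          refine lt_of_le_of_ne (Submodule.comap_mono hX.le) fun h => hX.ne ?_
          rw [← Submodule.map_comap_eq_of_surjective (Submodule.mkQ_surjective U) W, h,
            Submodule.map_comap_eq_of_surjective (Submodule.mkQ_surjective U) X]
        · intro X hX
          simp only [Finset.mem_filter, Finset.mem_univ, true_and] at hX ⊢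
          have hU : U ≤ X := le_trans (fun v hv => by
            rw [Submodule.mem_comap, Submodule.mkQ_apply, (Submodule.Quotient.mk_eq_zero U).2 hv]
            exact zero_mem _) hX.le
          have hWle : W ≤ X.map U.mkQ := by
            rw [← Submodule.map_comap_eq_of_surjective (Submodule.mkQ_surjective U) W]
            exact Submodule.map_mono hX.le
          refine lt_of_le_of_ne hWle fun h => hX.ne ?_
          rw [h, Submodule.comap_map_mkQ, sup_eq_right.2 hU]
        · intro X _
          exact Submodule.map_comap_eq_of_surjective (Submodule.mkQ_surjective U) X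
        · intro X hX
          simp only [Finset.mem_filter, Finset.mem_univ, true_and] at hX
          have hU : U ≤ X := le_trans (fun v hv => by
            rw [Submodule.mem_comap, Submodule.mkQ_apply, (Submodule.Quotient.mk_eq_zero U).2 hv]
            exact zero_mem _) hX.le
          rw [Submodule.comap_map_mkQ, sup_eq_right.2 hU]
        · intro X hX
          simp only [Finset.mem_filter, Finset.mem_univ, true_and] at hX
          exact ih X hX
  rw [moebius, hkey ⊥, Submodule.comap_bot, Submodule.ker_mkQ]

/-- Weisner's theorem at a coatom. -/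
theorem sum_psi_inf_eq [Fintype (Submodule R M)] [DecidableEq (Submodule R M)]
    {H : Submodule R M} (hH : IsCoatom H) :
    ∀ U, U ≤ H → ∑ W ∈ Finset.univ.filter (fun W => W ⊓ H = U), psi W = 0 := by
  classical
  intro U
  induction U using (wellFounded_gt (α := Submodule R M)).induction with
  | _ U ih =>
    intro hU
    have htot := sum_psi_Ici (a := U) (fun h => hH.1 (top_unique (h ▸ hU)))
    rw [← Finset.sum_fiberwise_of_maps_to (g := fun W => W ⊓ H)
      (t := Finset.univ.filter (fun U' => U ≤ U' ∧ U' ≤ H)) (fun W hW => Finset.mem_filter.2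
        ⟨Finset.mem_univ _, le_inf (Finset.mem_filter.1 hW).2 hU, inf_le_right⟩)] at htot
    rw [Finset.sum_eq_single U] at htot
    · refine Eq.trans (Finset.sum_congr ?_ fun _ _ => rfl) htot
      ext W
      simp only [Finset.mem_filter, Finset.mem_univ, true_and]
      exact ⟨fun h => ⟨h ▸ inf_le_left, h⟩, fun h => h.2⟩
    · intro U' hU' hne
      simp only [Finset.mem_filter, Finset.mem_univ, true_and] at hU'
      refine Eq.trans (Finset.sum_congr ?_ fun _ _ => rfl) (ih U' (lt_of_le_of_ne hU'.1 (Ne.symm hne)) hU'.2)
      ext W
      simp only [Finset.mem_filter, Finset.mem_univ, true_and]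
      exact ⟨fun h => h.2, fun h => ⟨hU'.1.trans (h ▸ inf_le_left), h⟩⟩
    · intro h; exact absurd (Finset.mem_filter.2 ⟨Finset.mem_univ _, le_rfl, hU⟩) h

/-- The graphs over a fixed complement parametrise all complements. -/
theorem card_isCompl {S H : Submodule R M} (h : IsCompl S H) :
    Nat.card {S' : Submodule R M // IsCompl H S'} = Nat.card (S →ₗ[R] H) := by
  refine (Nat.card_congr (Submodule.isComplEquivProj H)).trans (Nat.card_congr ?_)
  exact
    { toFun := fun f => f.1 ∘ₗ S.subtype
      invFun := fun g => ⟨LinearMap.ofIsCompl h g LinearMap.id,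
        fun x => LinearMap.ofIsCompl_right_apply h x⟩
      left_inv := fun f => Subtype.ext (LinearMap.ofIsCompl_eq h (fun u => rfl) (fun v => (f.2 v).symm))
      right_inv := fun g => LinearMap.ext fun u => LinearMap.ofIsCompl_left_apply h u }

/-- The recursion for the Möbius function at a simple summand. -/
theorem moebius_recursion {S H : Submodule R M} [IsSimpleModule R S] (h : IsCompl S H) :
    moebius R M = -(Nat.card (S →ₗ[R] H) : ℤ) * moebius R H := by
  classical
  letI := Fintype.ofFinite (Submodule R M)
  have hS : IsAtom S := isSimpleModule_iff_isAtom.1 inferInstance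
  have hH : IsCoatom H := h.symm.isCoatom_iff_isAtom.2 hS
  have hsum := sum_psi_inf_eq hH ⊥ bot_le
  rw [← Finset.add_sum_erase (Finset.univ.filter fun W : Submodule R M => W ⊓ H = ⊥) _
    (a := ⊥) (Finset.mem_filter.2 ⟨Finset.mem_univ _, bot_inf_eq H⟩)] at hsum
  have hval : ∀ S' : Submodule R M, IsCompl H S' → psi S' = moebius R H := by
    intro S' hS'
    rw [psi_eq_moebius_quotient]
    exact moebius_congr (Submodule.quotientEquivOfIsCompl S' H hS'.symm)
  have heq : (Finset.univ.filter (fun W : Submodule R M => W ⊓ H = ⊥)).erase ⊥ =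
      Finset.univ.filter (fun W => IsCompl H W) := by
    ext W
    simp only [Finset.mem_erase, Finset.mem_filter, Finset.mem_univ, true_and]
    constructor
    · rintro ⟨hne, hi⟩
      refine IsCompl.of_eq (by rw [inf_comm, hi]) (hH.2 _ (lt_of_le_of_ne le_sup_left fun he => hne ?_))
      rw [← hi, eq_comm, inf_eq_left]
      exact he ▸ le_sup_right
    · intro hc
      refine ⟨?_, by rw [inf_comm]; exact hc.inf_eq_bot⟩
      rintro rfl
      exact hH.1 (by simpa using hc.sup_eq_top)
  rw [heq, Finset.sum_congr rfl fun W hW => hval W (Finset.mem_filter.1 hW).2, Finset.sum_const,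
    nsmul_eq_mul] at hsum
  rw [← card_isCompl h]
  rw [show Nat.card {S' : Submodule R M // IsCompl H S'} =
    (Finset.univ.filter fun W : Submodule R M => IsCompl H W).card by
      rw [Nat.card_eq_fintype_card, Fintype.card_subtype]]
  change psi ⊥ + _ = 0 at hsum
  change psi ⊥ = _
  linarith

end General

section Poly

variable {F : Type*} [Field F]

/-- Multiplication by `X`. -/
noncomputable def xMap (F M : Type*) [Field F] [AddCommGroup M] [Module F M] [Module F[X] M]
    [IsScalarTower F F[X] M] : Module.End F M :=
  (LinearMap.lsmul F[X] M X).restrictScalars F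

theorem charpoly_xMap_prod {M : Type*} [AddCommGroup M] [Module F M] [Module F[X] M]
    [IsScalarTower F F[X] M] [Module.Finite F M] {S H : Submodule F[X] M} [Module.Finite F S]
    [Module.Finite F H] (h : IsCompl S H) :
    (xMap F M).charpoly = (xMap F S).charpoly * (xMap F H).charpoly := by
  rw [← LinearMap.charpoly_prodMap,
    ← ((Submodule.prodEquivOfIsCompl S H h).restrictScalars F).charpoly_conj]
  congr 1
  refine LinearMap.ext fun p => ?_
  obtain ⟨p, rfl⟩ := ((Submodule.prodEquivOfIsCompl S H h).restrictScalars F).surjective p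
  rw [LinearEquiv.conj_apply_apply, LinearEquiv.symm_apply_apply]
  simp only [xMap, LinearEquiv.restrictScalars_apply, Submodule.coe_prodEquivOfIsCompl',
    LinearMap.prodMap_apply, LinearMap.coe_restrictScalars, LinearMap.lsmul_apply, smul_add,
    Submodule.coe_smul]

/-- A simple finite module is the quotient by a monic irreducible polynomial. -/
theorem exists_simple_equiv {S : Type*} [AddCommGroup S] [Module F[X] S] [IsSimpleModule F[X] S]
    [Finite S] : ∃ f : F[X], f.Monic ∧ Irreducible f ∧
      Nonempty ((F[X] ⧸ Ideal.span {f}) ≃ₗ[F[X]] S) := by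
  classical
  obtain ⟨I, hI, ⟨e⟩⟩ := isSimpleModule_iff_quot_maximal.1 (inferInstance : IsSimpleModule F[X] S)
  obtain ⟨g, rfl⟩ := (IsPrincipalIdealRing.principal I).principal
  have hg : g ≠ 0 := by
    rintro rfl
    haveI : Finite (F[X] ⧸ Submodule.span F[X] {(0 : F[X])}) := Finite.of_equiv S e.toEquiv
    have : Finite F[X] := Finite.of_injective (Submodule.Quotient.mk (p := Submodule.span F[X] {(0 : F[X])}))
      fun a b hab => by
        rw [Submodule.Quotient.eq, Submodule.span_zero_singleton, Submodule.mem_bot, sub_eq_zero] at hab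
        exact hab
    exact not_finite F[X]
  have hp : Prime g := (Ideal.span_singleton_prime hg).1 hI.isPrime
  refine ⟨normalize g, monic_normalize hg, (normalize_associated g).irreducible_iff.2 hp.irreducible, ?_⟩
  have he : Ideal.span {normalize g} = Submodule.span F[X] {g} :=
    Ideal.span_singleton_eq_span_singleton.2 (normalize_associated g)
  exact ⟨(Submodule.quotEquivOfEq _ _ he).trans e.symm⟩

theorem charpoly_xMap_simple {S : Type*} [AddCommGroup S] [Module F S] [Module F[X] S]
    [IsScalarTower F F[X] S] [Module.Finite F S] {f : F[X]} (hmon : f.Monic) (hirr : Irreducible f)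
    (e : (F[X] ⧸ Ideal.span {f}) ≃ₗ[F[X]] S) :
    (xMap F S).charpoly = f ∧ finrank F S = f.natDegree := by
  haveI := Fact.mk hirr
  haveI : Module.Finite F (AdjoinRoot f) := (AdjoinRoot.powerBasis hirr.ne_zero).finite
  let e' : AdjoinRoot f ≃ₗ[F] S :=
    { toFun := fun a => e a
      invFun := fun s => e.symm s
      left_inv := fun a => e.symm_apply_apply a
      right_inv := fun s => e.apply_symm_apply s
      map_add' := fun a b => map_add e a b
      map_smul' := fun c a => by
        obtain ⟨a, rfl⟩ := AdjoinRoot.mk_surjective a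
        rw [RingHom.id_apply, AdjoinRoot.smul_mk]
        change e (Submodule.Quotient.mk (c • a)) = c • e (Submodule.Quotient.mk a)
        rw [← IsScalarTower.algebraMap_smul F[X] c (e (Submodule.Quotient.mk a)), ← map_smul,
          ← Submodule.Quotient.mk_smul, IsScalarTower.algebraMap_smul] }
  constructor
  · conv_rhs => rw [← Cfsg.Agent.Forms.charpoly_mulLeft_root hmon]
    rw [← e'.charpoly_conj (LinearMap.mulLeft F (AdjoinRoot.root f))]
    congr 1
    refine LinearMap.ext fun s => ?_
    obtain ⟨a, rfl⟩ := e'.surjective s
    rw [LinearEquiv.conj_apply_apply, LinearEquiv.symm_apply_apply]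
    obtain ⟨a, rfl⟩ := AdjoinRoot.mk_surjective a
    change (X : F[X]) • e (Submodule.Quotient.mk a) = e (Submodule.Quotient.mk ((X : F[X]) * a))
    rw [← map_smul, ← Submodule.Quotient.mk_smul, smul_eq_mul]
  · rw [← e'.finrank_eq, (AdjoinRoot.powerBasis hirr.ne_zero).finrank, AdjoinRoot.powerBasis_dim]

/-- The Hom from a cyclic module is the annihilator. -/
noncomputable def homQuotEquiv {R H : Type*} [CommRing R] [AddCommGroup H] [Module R H] (f : R) :
    ((R ⧸ Ideal.span {f}) →ₗ[R] H) ≃ {h : H // f • h = 0} where
  toFun φ := ⟨φ (Submodule.Quotient.mk 1), by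
    rw [← map_smul, ← Submodule.Quotient.mk_smul, smul_eq_mul, mul_one,
      (Submodule.Quotient.mk_eq_zero _).2 (Ideal.mem_span_singleton_self f), map_zero]⟩
  invFun h := Submodule.liftQ _ (LinearMap.toSpanSingleton R H h.1)
    ((Submodule.span_singleton_le_iff_mem _ _).2 (by simp [h.2]))
  left_inv φ := by
    refine Submodule.linearMap_qext _ (LinearMap.ext_ring ?_)
    simp
  right_inv h := Subtype.ext (by
    change LinearMap.toSpanSingleton R H h.1 1 = h.1
    rw [LinearMap.toSpanSingleton_apply, one_smul])

theorem card_annihilated_simple {S : Type*} [AddCommGroup S] [Module F[X] S] {f g : F[X]}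
    (hf : Irreducible f) (hg : Irreducible g) (hfm : f.Monic) (hgm : g.Monic) [Decidable (g = f)]
    (e : (F[X] ⧸ Ideal.span {f}) ≃ₗ[F[X]] S) :
    Nat.card {s : S // g • s = 0} = if g = f then Nat.card S else 1 := by
  split_ifs with h
  · subst h
    refine Nat.card_congr (Equiv.subtypeUnivEquiv fun s => ?_)
    obtain ⟨a, rfl⟩ := e.surjective s
    obtain ⟨a, rfl⟩ := Submodule.Quotient.mk_surjective _ a
    rw [← map_smul, ← Submodule.Quotient.mk_smul, smul_eq_mul,
      (Submodule.Quotient.mk_eq_zero _).2 (Ideal.mul_mem_right a _ (Ideal.mem_span_singleton_self g)),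
      map_zero]
  · haveI : Unique {s : S // g • s = 0} :=
      { default := ⟨0, smul_zero g⟩
        uniq := fun s => Subtype.ext (by
          obtain ⟨s, hs⟩ := s
          obtain ⟨a, rfl⟩ := e.surjective s
          obtain ⟨a, rfl⟩ := Submodule.Quotient.mk_surjective _ a
          rw [← map_smul, ← Submodule.Quotient.mk_smul, LinearEquiv.map_eq_zero_iff,
            Submodule.Quotient.mk_eq_zero, Ideal.mem_span_singleton, smul_eq_mul] at hs
          have hfa : f ∣ a := (hf.prime.dvd_or_dvd hs).resolve_left fun hd => h
            (Polynomial.eq_of_monic_of_associated hgm hfm (hf.associated_of_dvd hg hd).symm)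
          change e (Submodule.Quotient.mk a) = 0
          rw [(Submodule.Quotient.mk_eq_zero _).2 (Ideal.mem_span_singleton.2 hfa), map_zero]) }
    exact Nat.card_unique

universe u v

/-- Structure of a finite semisimple `F[X]`-module and its Möbius function. -/
theorem exists_factor_data {F : Type u} [Field F] [Fintype F] [DecidableEq F] :
    ∀ (k : ℕ) (M : Type v) [AddCommGroup M] [Module F M] [Module F[X] M] [IsScalarTower F F[X] M]
      [Finite M] [Module.Finite F M] [IsSemisimpleModule F[X] M], Nat.card M ≤ k →
    ∃ s : Multiset F[X], (∀ f ∈ s, f.Monic ∧ Irreducible f) ∧ (xMap F M).charpoly = s.prod ∧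
      moebius F[X] M = ∏ f ∈ s.toFinset,
        (-1 : ℤ) ^ s.count f * (Fintype.card F : ℤ) ^ (f.natDegree * (s.count f).choose 2) ∧
      ∀ g : F[X], g.Monic → Irreducible g →
        Nat.card {m : M // g • m = 0} = Fintype.card F ^ (g.natDegree * s.count g) := by
  classical
  intro k
  induction k with
  | zero =>
    intro M _ _ _ _ _ _ _ hk
    exact absurd hk (Nat.not_le.2 Nat.card_pos)
  | succ k ih =>
    intro M _ _ _ _ _ _ _ hk
    rcases subsingleton_or_nontrivial M with hM | hM
    · refine ⟨0, by simp, ?_, ?_, fun g _ _ => ?_⟩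
      · rw [Multiset.prod_zero]
        refine (LinearMap.charpoly_monic _).natDegree_eq_zero.1 ?_
        rw [LinearMap.charpoly_natDegree, Module.finrank_zero_of_subsingleton]
      · rw [moebius_of_subsingleton]; simp
      · haveI : Unique {m : M // g • m = 0} :=
          { default := ⟨0, smul_zero g⟩, uniq := fun m => Subsingleton.elim _ _ }
        simp
    · obtain ⟨S, hS⟩ := IsSemisimpleModule.exists_simple_submodule F[X] M
      haveI := hS
      obtain ⟨H, hSH⟩ := exists_isCompl S
      haveI : Module.Finite F S :=
        Module.Finite.of_injective (S.subtype.restrictScalars F) Subtype.val_injective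
      haveI : Module.Finite F H :=
        Module.Finite.of_injective (H.subtype.restrictScalars F) Subtype.val_injective
      obtain ⟨f, hfm, hfi, ⟨e⟩⟩ := exists_simple_equiv (F := F) (S := S)
      obtain ⟨hSc, hSd⟩ := charpoly_xMap_simple hfm hfi e
      have hprodM := Nat.card_congr (Submodule.prodEquivOfIsCompl S H hSH).toEquiv
      rw [Nat.card_prod] at hprodM
      have hH : Nat.card H ≤ k := by
        haveI : Nontrivial S := IsSimpleModule.nontrivial F[X] S
        have h2 : 1 < Nat.card S := Finite.one_lt_card
        have h1 : 0 < Nat.card H := Nat.card_pos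
        have h3 : 2 * Nat.card H ≤ Nat.card S * Nat.card H := Nat.mul_le_mul_right _ h2
        omega
      obtain ⟨s, hs, hcp, hmu, hann⟩ := ih H hH
      have hcardS : Nat.card S = Fintype.card F ^ f.natDegree := by
        rw [Module.natCard_eq_pow_finrank (K := F), hSd, Nat.card_eq_fintype_card]
      refine ⟨f ::ₘ s, ?_, ?_, ?_, fun g hgm hgi => ?_⟩
      · simp only [Multiset.mem_cons, forall_eq_or_imp]
        exact ⟨⟨hfm, hfi⟩, hs⟩
      · rw [charpoly_xMap_prod hSH, hSc, hcp, Multiset.prod_cons]
      · have hhom : Nat.card (S →ₗ[F[X]] H) = Fintype.card F ^ (f.natDegree * s.count f) := by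
          rw [← hann f hfm hfi]
          exact Nat.card_congr
            ((LinearEquiv.congrLeft H F[X] e.symm).toEquiv.trans (homQuotEquiv f))
        rw [moebius_recursion hSH, hhom, hmu]
        set φ : F[X] → ℕ → ℤ := fun g c =>
          (-1 : ℤ) ^ c * (Fintype.card F : ℤ) ^ (g.natDegree * c.choose 2) with hφ
        have hfin : f ∈ (f ::ₘ s).toFinset := Multiset.mem_toFinset.2 (Multiset.mem_cons_self f s)
        have hsub : s.toFinset ⊆ (f ::ₘ s).toFinset := by
          rw [Multiset.toFinset_cons]; exact Finset.subset_insert _ _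
        rw [show ∏ g ∈ s.toFinset, φ g (s.count g) = ∏ g ∈ (f ::ₘ s).toFinset, φ g (s.count g) from
          Finset.prod_subset hsub fun g _ hg => by
            simp [hφ, Multiset.count_eq_zero.2 (fun h => hg (Multiset.mem_toFinset.2 h))]]
        change _ = ∏ g ∈ (f ::ₘ s).toFinset, φ g ((f ::ₘ s).count g)
        rw [← Finset.mul_prod_erase _ _ hfin, ← Finset.mul_prod_erase _ _ hfin, ← mul_assoc]
        congr 1
        · simp only [hφ, Multiset.count_cons_self]
          rw [Nat.choose_succ_succ, Nat.choose_one_right, Nat.cast_pow, pow_succ, Nat.mul_add, pow_add]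
          ring
        · refine Finset.prod_congr rfl fun g hg => ?_
          rw [Multiset.count_cons_of_ne (Finset.ne_of_mem_erase hg)]
      · have hsplit : Nat.card {m : M // g • m = 0} =
            Nat.card {x : S // g • x = 0} * Nat.card {y : H // g • y = 0} := by
          rw [← Nat.card_prod]
          refine (Nat.card_congr (Equiv.trans ?_ (Equiv.subtypeProdEquivProd))).trans rfl
          refine (Equiv.subtypeEquiv (Submodule.prodEquivOfIsCompl S H hSH).symm.toEquiv fun m => ?_)
          change g • m = 0 ↔ g • ((Submodule.prodEquivOfIsCompl S H hSH).symm m).1 = 0 ∧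
            g • ((Submodule.prodEquivOfIsCompl S H hSH).symm m).2 = 0
          rw [← Prod.smul_fst, ← Prod.smul_snd, ← map_smul]
          exact ⟨fun h => by simp [h], fun h =>
            (Submodule.prodEquivOfIsCompl S H hSH).symm.map_eq_zero_iff.1 (Prod.ext h.1 h.2)⟩
        rw [hsplit, hann g hgm hgi, card_annihilated_simple hfi hgi hfm hgm e, hcardS]
        split_ifs with h
        · subst h
          rw [Multiset.count_cons_self, ← pow_add]
          congr 1
          ring
        · rw [Multiset.count_cons_of_ne h, one_mul]

end Poly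

end Cfsg.Agent.Screen.SteinbergValue
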