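import Mathlib

/-!
The alternating sum over compositions of flag counts is the Möbius function of the lattice of
invariant subspaces.
-/

set_option autoImplicit false

namespace Cfsg.Agent.Screen.SteinbergValue

open Module

section Psi

variable {α : Type*} [PartialOrder α] [OrderTop α] [Finite α]

open Classical in
/-- The Möbius function from an element to the top. -/
noncomputable def psi : α → ℤ :=
  (wellFounded_gt (α := α)).fix fun a rec =>
    letI := Fintype.ofFinite α
    if a = ⊤ then 1 else -∑ b : {b : α // a < b}, rec b.1 b.2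

open Classical in
theorem psi_eq (a : α) :
    psi a = if a = ⊤ then 1 else -∑ᶠ b : {b : α // a < b}, psi b.1 := by
  letI := Fintype.ofFinite α
  rw [psi, WellFounded.fix_eq, finsum_eq_sum_of_fintype]

theorem psi_top : psi (⊤ : α) = 1 := by rw [psi_eq, if_pos rfl]

theorem psi_of_ne [Fintype α] [DecidableLT α] {a : α} (ha : a ≠ ⊤) :
    psi a = -∑ b ∈ Finset.univ.filter (a < ·), psi b := by
  classical
  rw [psi_eq, if_neg ha, finsum_eq_sum_of_fintype, Finset.sum_subtype (p := (a < ·))]
  simp

theorem sum_psi_Ici [Fintype α] [DecidableEq α] [DecidableLE α] {a : α} (ha : a ≠ ⊤) :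
    ∑ b ∈ Finset.univ.filter (a ≤ ·), psi b = 0 := by
  classical
  have h : Finset.univ.filter (a ≤ ·) = insert a (Finset.univ.filter (a < ·)) := by
    ext b; simp [le_iff_eq_or_lt, eq_comm]
  rw [h, Finset.sum_insert (by simp), psi_of_ne ha, neg_add_cancel]

theorem psi_orderIso {β : Type*} [PartialOrder β] [OrderTop β] [Finite β] (e : α ≃o β) (a : α) :
    psi (e a) = psi a := by
  classical
  induction a using (wellFounded_gt (α := α)).induction with
  | _ a ih =>
    by_cases ha : a = ⊤
    · subst ha
      rw [OrderIso.map_top, psi_top, psi_top]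
    · letI := Fintype.ofFinite α
      letI := Fintype.ofFinite β
      rw [psi_of_ne ha, psi_of_ne (fun h => ha (e.injective (h.trans e.map_top.symm)))]
      congr 1
      refine Finset.sum_bij' (fun b _ => e.symm b) (fun b _ => e b) ?_ ?_ ?_ ?_ ?_
      · intro b hb; simp only [Finset.mem_filter, Finset.mem_univ, true_and] at hb ⊢; exact e.lt_symm_apply.2 hb
      · intro b hb; simp only [Finset.mem_filter, Finset.mem_univ, true_and] at hb ⊢; exact e.lt_iff_lt.2 hb
      · intro b _; exact e.apply_symm_apply b
      · intro b _; exact e.symm_apply_apply b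
      · intro b hb
        simp only [Finset.mem_filter, Finset.mem_univ, true_and] at hb
        rw [← ih _ (e.lt_symm_apply.2 hb), e.apply_symm_apply]

end Psi

/-- The alternating sum over the permutations `κ` with `κ i ≤ i + 1` of `G` at the composition
`i + 1 - κ i`, the part at the preimage of `0` enlarged by `e`. -/
def altSum (n e : ℕ) (G : List ℕ → ℤ) : ℤ :=
  ∑ κ : Equiv.Perm (Fin n),
    if ∀ i : Fin n, (κ i).val ≤ i.val + 1 then
      (Equiv.Perm.sign κ : ℤ) *
        G (List.ofFn fun i : Fin n => (i.val + 1 - (κ i).val) + if (κ i).val = 0 then e else 0)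
    else 0

theorem altSum_zero (e : ℕ) (G : List ℕ → ℤ) : altSum 0 e G = G [] := by
  rw [altSum, Fintype.sum_unique, if_pos (fun i => i.elim0), List.ofFn_zero, Subsingleton.elim default 1]
  simp

theorem altSum_succ (n e : ℕ) (G : List ℕ → ℤ) :
    altSum (n + 1) e G = altSum n 0 (fun l => G ((1 + e) :: l)) -
      if n = 0 then 0 else altSum n (e + 1) (fun l => G (0 :: l)) := by
  unfold altSum
  rw [← Equiv.Perm.decomposeFin.symm.sum_comp, Fintype.sum_prod_type, Fin.sum_univ_succ,
    sub_eq_add_neg]
  congr 1
  · refine Finset.sum_congr rfl fun κ _ => ?_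
    simp only [Equiv.Perm.decomposeFin.symm_sign, Fin.forall_fin_succ,
      Equiv.Perm.decomposeFin_symm_apply_zero, Equiv.Perm.decomposeFin_symm_apply_succ,
      Equiv.swap_self, Equiv.refl_apply, if_pos, List.ofFn_succ, Fin.val_zero, Fin.val_succ]
    by_cases h : ∀ i : Fin n, (κ i).val ≤ i.val + 1
    · rw [if_pos ⟨by omega, fun i => Nat.succ_le_succ (h i)⟩, if_pos h, one_mul]
      congr 2
      congr 1
      refine congrArg List.ofFn (funext fun i => ?_)
      rw [if_neg (by omega)]
      split_ifs <;> omega
    · rw [if_neg (fun h' => h fun i => Nat.le_of_succ_le_succ (h'.2 i)), if_neg h]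
  · cases n with
    | zero => simp
    | succ m =>
      rw [if_neg (Nat.succ_ne_zero m), Fin.sum_univ_succ, ← Finset.sum_neg_distrib]
      have hrest : ∑ j : Fin m, ∑ κ : Equiv.Perm (Fin (m + 1)),
          (if ∀ i : Fin (m + 2), (Equiv.Perm.decomposeFin.symm (j.succ.succ, κ) i).val ≤ i.val + 1 then
            (Equiv.Perm.sign (Equiv.Perm.decomposeFin.symm (j.succ.succ, κ)) : ℤ) *
              G (List.ofFn fun i : Fin (m + 2) =>
                (i.val + 1 - (Equiv.Perm.decomposeFin.symm (j.succ.succ, κ) i).val) +
                  if (Equiv.Perm.decomposeFin.symm (j.succ.succ, κ) i).val = 0 then e else 0)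
          else 0) = 0 := by
        refine Finset.sum_eq_zero fun j _ => Finset.sum_eq_zero fun κ _ => if_neg fun h => ?_
        have := h 0
        rw [Equiv.Perm.decomposeFin_symm_apply_zero] at this
        simp only [Fin.val_succ, Fin.val_zero] at this
        omega
      rw [hrest, add_zero]
      refine Finset.sum_congr rfl fun κ _ => ?_
      have hsucc : ∀ i, (Equiv.Perm.decomposeFin.symm ((0 : Fin (m + 1)).succ, κ) i.succ).val =
          if (κ i).val = 0 then 0 else (κ i).val + 1 := by
        intro i
        rw [Equiv.Perm.decomposeFin_symm_apply_succ]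
        by_cases h : κ i = 0
        · rw [h, Equiv.swap_apply_right]; simp
        · rw [Equiv.swap_apply_of_ne_of_ne (Fin.succ_ne_zero _) (fun h' => h (Fin.succ_injective _ h')),
            Fin.val_succ, if_neg]
          exact fun h' => h (Fin.ext h')
      simp only [Equiv.Perm.decomposeFin.symm_sign, Fin.forall_fin_succ (n := m + 1),
        Equiv.Perm.decomposeFin_symm_apply_zero, hsucc, List.ofFn_succ (n := m + 1),
        Fin.val_zero, Fin.val_succ, Fin.succ_ne_zero, if_false]
      by_cases h : ∀ i : Fin (m + 1), (κ i).val ≤ i.val + 1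
      · rw [if_pos ⟨le_rfl, fun i => by have := h i; split_ifs <;> omega⟩, if_pos h]
        push_cast
        rw [neg_one_mul, neg_mul]
        congr 3
        congr 1
        refine congrArg List.ofFn (funext fun i => ?_)
        have := h i
        by_cases hc : (κ i).val = 0
        · simp [hc]; omega
        · simp [hc]
      · rw [if_neg (fun h' => h fun i => by
          have := h'.2 i
          split_ifs at this <;> omega), if_neg h, neg_zero]

section Flags

variable {F : Type*} [Field F] {V : Type*} [AddCommGroup V] [Module F V] [Finite V]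

open Classical in
/-- The number of invariant chains upwards from `U` to the top with the given dimension steps. -/
noncomputable def flagCount (T : Module.End F V) : List ℕ → Submodule F V → ℤ
  | [], U => if U = ⊤ then 1 else 0
  | c :: l, U => ∑ᶠ W : {W : Submodule F V //
      U ≤ W ∧ W ≤ W.comap T ∧ finrank F W = finrank F U + c}, flagCount T l W.1

open Classical in
theorem flagCount_cons (T : Module.End F V) [Fintype (Submodule F V)] (c : ℕ) (l : List ℕ)
    (U : Submodule F V) :
    flagCount T (c :: l) U = ∑ W ∈ Finset.univ.filter (fun W : Submodule F V =>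
      U ≤ W ∧ W ≤ W.comap T ∧ finrank F W = finrank F U + c), flagCount T l W := by
  rw [flagCount, finsum_eq_sum_of_fintype, Finset.sum_subtype
    (p := fun W => U ≤ W ∧ W ≤ W.comap T ∧ finrank F W = finrank F U + c)]
  simp

variable [FiniteDimensional F V]

theorem flagCount_zero_cons (T : Module.End F V) (l : List ℕ) {U : Submodule F V}
    (hU : U ≤ U.comap T) : flagCount T (0 :: l) U = flagCount T l U := by
  classical
  letI := Fintype.ofFinite (Submodule F V)
  rw [flagCount_cons, Finset.sum_eq_single U]
  · intro W hW hne
    rw [Finset.mem_filter] at hW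
    exact absurd (Submodule.eq_of_le_of_finrank_eq hW.2.1 (by omega)).symm hne
  · intro h; exact absurd (Finset.mem_filter.2 ⟨Finset.mem_univ _, le_rfl, hU, rfl⟩) h

/-- The invariant subspaces. -/
abbrev Inv (T : Module.End F V) : Type _ := {W : Submodule F V // W ≤ W.comap T}

instance (T : Module.End F V) : OrderTop (Inv T) where
  top := ⟨⊤, fun _ _ => trivial⟩
  le_top _ := le_top (α := Submodule F V)

theorem altSum_flagCount (T : Module.End F V) : ∀ (n : ℕ) (e : ℕ) (U : Inv T),
    finrank F U.1 + (n + e) = finrank F V →
    altSum n e (fun l => flagCount T l U.1) =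
      if n = 0 then (if e = 0 then psi U else 0)
      else if e = 0 then (-1) ^ n * psi U
      else -(-1) ^ n * ∑ᶠ W : {W : Inv T // U.1 ≤ W.1 ∧ finrank F U.1 + e < finrank F W.1}, psi W.1 := by
  classical
  letI := Fintype.ofFinite (Submodule F V)
  intro n
  induction n with
  | zero =>
    intro e U hU
    rw [altSum_zero, if_pos rfl]
    simp only [flagCount]
    by_cases he : e = 0
    · have htop : U.1 = ⊤ := Submodule.eq_top_of_finrank_eq (by omega)
      rw [if_pos htop, if_pos he, show U = ⊤ from Subtype.ext htop, psi_top]
    · rw [if_neg he, if_neg]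
      intro h
      rw [h, finrank_top] at hU
      omega
  | succ n ih =>
    intro e U hU
    set s : ℕ → ℤ := fun d => ∑ W ∈ (Finset.univ : Finset (Inv T)).filter
      (fun W => U.1 ≤ W.1 ∧ finrank F U.1 + d < finrank F W.1), psi W with hs
    set t : ℕ → ℤ := fun d => ∑ W ∈ (Finset.univ : Finset (Inv T)).filter
      (fun W => U.1 ≤ W.1 ∧ finrank F W.1 = finrank F U.1 + d), psi W with ht
    have hst : ∀ d, s d = t (d + 1) + s (d + 1) := by
      intro d
      simp only [hs, ht]
      rw [← Finset.sum_union (Finset.disjoint_filter.2 fun W _ h1 h2 => by omega), ← Finset.filter_or]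
      refine Finset.sum_congr (Finset.filter_congr fun W _ => ?_) fun _ _ => rfl
      constructor
      · rintro ⟨h1, h2⟩
        by_cases h3 : finrank F W.1 = finrank F U.1 + (d + 1)
        · exact Or.inl ⟨h1, h3⟩
        · exact Or.inr ⟨h1, by omega⟩
      · rintro (⟨h1, h2⟩ | ⟨h1, h2⟩) <;> exact ⟨h1, by omega⟩
    have hfin : ∀ d, ∑ᶠ W : {W : Inv T // U.1 ≤ W.1 ∧ finrank F U.1 + d < finrank F W.1},
        psi W.1 = s d := by
      intro d
      simp only [hs]
      rw [finsum_eq_sum_of_fintype, Finset.sum_subtype
        (p := fun W : Inv T => U.1 ≤ W.1 ∧ finrank F U.1 + d < finrank F W.1)]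
      simp
    have hfirst : altSum n 0 (fun l => flagCount T ((1 + e) :: l) U.1) = (-1) ^ n * t (e + 1) := by
      simp only [ht]
      rw [Finset.mul_sum]
      unfold altSum
      simp only [flagCount_cons, Finset.mul_sum]
      have : ∀ W : Inv T, U.1 ≤ W.1 ∧ finrank F W.1 = finrank F U.1 + (e + 1) →
          altSum n 0 (fun l => flagCount T l W.1) = (-1) ^ n * psi W := by
        intro W hW
        rw [ih 0 W (by omega)]
        by_cases hn : n = 0
        · subst hn; simp
        · simp [hn]
      rw [← Finset.sum_congr rfl fun W hW => this W (Finset.mem_filter.1 hW).2]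
      unfold altSum
      rw [Finset.sum_comm]
      refine Finset.sum_congr rfl fun κ _ => ?_
      by_cases h : ∀ i : Fin n, (κ i).val ≤ i.val + 1
      · simp only [if_pos h]
        refine Finset.sum_bij' (fun W hW => ⟨W, ((Finset.mem_filter.1 hW).2).2.1⟩) (fun W _ => W.1)
          ?_ ?_ ?_ ?_ ?_
        · intro W hW
          have := (Finset.mem_filter.1 hW).2
          exact Finset.mem_filter.2 ⟨Finset.mem_univ _, this.1, by rw [this.2.2]; omega⟩
        · intro W hW
          have := (Finset.mem_filter.1 hW).2
          exact Finset.mem_filter.2 ⟨Finset.mem_univ _, this.1, W.2, by rw [this.2]; omega⟩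
        · intros; rfl
        · intros; rfl
        · intros; rfl
      · simp only [if_neg h, Finset.sum_const_zero]
    have hzero : (fun l => flagCount T (0 :: l) U.1) = fun l => flagCount T l U.1 :=
      funext fun l => flagCount_zero_cons T l U.2
    rw [altSum_succ, hfirst, hzero, if_neg (Nat.succ_ne_zero n), hfin]
    have hgoal : (-1 : ℤ) ^ n * t (e + 1) -
        (if n = 0 then 0 else altSum n (e + 1) fun l => flagCount T l U.1) = (-1) ^ n * s e := by
      by_cases hn : n = 0
      · subst hn
        rw [if_pos rfl, sub_zero, hst e]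
        have : s (e + 1) = 0 := by
          simp only [hs]
          refine Finset.sum_eq_zero fun W hW => ?_
          have h1 := (Finset.mem_filter.1 hW).2.2
          have h2 := Submodule.finrank_le W.1
          omega
        rw [this, add_zero]
      · rw [if_neg hn, ih (e + 1) U (by omega), if_neg hn, if_neg (Nat.succ_ne_zero e), hfin, hst e]
        ring
    rw [hgoal]
    by_cases he : e = 0
    · subst he
      have hne : U ≠ ⊤ := by
        rintro rfl
        change finrank F (⊤ : Submodule F V) + _ = _ at hU
        rw [finrank_top] at hU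
        omega
      rw [if_pos rfl, psi_of_ne hne, pow_succ]
      have : s 0 = ∑ W ∈ (Finset.univ : Finset (Inv T)).filter (U < ·), psi W := by
        simp only [hs, add_zero]
        refine Finset.sum_congr (Finset.filter_congr fun W _ => ?_) fun _ _ => rfl
        constructor
        · rintro ⟨h1, h2⟩
          refine lt_of_le_of_ne h1 fun h => ?_
          rw [h] at h2
          exact lt_irrefl _ h2
        · intro h
          exact ⟨h.le, Submodule.finrank_lt_finrank_of_lt h⟩
      rw [this]
      ring
    · rw [if_neg he, pow_succ]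
      ring

end Flags

end Cfsg.Agent.Screen.SteinbergValue
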